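import Cfsg.Agent.Chevalley.Data.SysD4
import Cfsg.Agent.Triality.Unipotent

/-!
Exponents of the roots on the torus of order `(q³ - 1)(q + 1)` of `³D₄`.
-/

set_option autoImplicit false

namespace CfsgLib.TwistedTorus

open Cfsg.Lie CfsgLib.Chevalley

/-- coordinates of a root -/
def vd (m s : ℕ) : ℤ := tabD4.coord 4 m s

theorem vd_eq (m s : ℕ) : sysD4.vec m s = vd m s := rfl

/-- the order of the torus -/
def tOrd (Q : ℤ) : ℤ := (Q ^ 3 - 1) * (Q + 1)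

/-- the exponent of a vector -/
def eVec (Q v0 v1 v2 v3 : ℤ) : ℤ := v0 + v1 * (Q ^ 3 - 1) + v2 * (Q + 1 - Q ^ 3) + v3 * Q ^ 2

/-- the exponent of a root -/
def eRoot (Q : ℤ) (r : ℕ) : ℤ := eVec Q (vd 0 r) (vd 1 r) (vd 2 r) (vd 3 r)

/-- the coefficient bounds -/
def Small (v0 v1 v2 v3 : ℤ) : Prop :=
  (v0 - v1 + v2).natAbs ≤ 4 ∧ v2.natAbs ≤ 4 ∧ v3.natAbs ≤ 4 ∧ (v1 - v2).natAbs ≤ 4

instance (v0 v1 v2 v3 : ℤ) : Decidable (Small v0 v1 v2 v3) := by unfold Small; infer_instance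

theorem digit {Q a b : ℤ} (ha : a.natAbs ≤ 4) (hQ : 5 ≤ Q) (h : a + Q * b = 0) :
    a = 0 ∧ b = 0 := by
  rcases eq_or_ne b 0 with rfl | hb
  · exact ⟨by simpa using h, rfl⟩
  · exfalso
    have h1 : Q ≤ |Q * b| := by
      rw [abs_mul, abs_of_nonneg (by omega : (0 : ℤ) ≤ Q)]
      exact le_mul_of_one_le_right (by omega) (Int.one_le_abs hb)
    rw [show Q * b = -a by omega, abs_neg] at h1
    have h2 : |a| ≤ 4 := by rw [Int.abs_eq_natAbs]; exact_mod_cast ha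
    omega

/-- Small exponents vanish only for the zero vector. -/
theorem eVec_zero {Q v0 v1 v2 v3 : ℤ} (hQ : 5 ≤ Q) (hs : Small v0 v1 v2 v3)
    (h : tOrd Q ∣ eVec Q v0 v1 v2 v3) : v0 = 0 ∧ v1 = 0 ∧ v2 = 0 ∧ v3 = 0 := by
  obtain ⟨h0, h1, h2, h3⟩ := hs
  set a0 := v0 - v1 + v2
  set a3 := v1 - v2
  have e : eVec Q v0 v1 v2 v3 = a0 + Q * v2 + Q ^ 2 * v3 + Q ^ 3 * a3 := by
    simp only [eVec, a0, a3]; ring
  have hb : ∀ {x : ℤ}, x.natAbs ≤ 4 → -4 ≤ x ∧ x ≤ 4 := fun h => by omega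
  obtain ⟨b0, b0'⟩ := hb h0
  obtain ⟨b1, b1'⟩ := hb h1
  obtain ⟨b2, b2'⟩ := hb h2
  obtain ⟨b3, b3'⟩ := hb h3
  have hzero : eVec Q v0 v1 v2 v3 = 0 := by
    refine Int.eq_zero_of_abs_lt_dvd h ?_
    rw [abs_lt, e, tOrd]
    have hQ2 : 0 ≤ Q ^ 2 := by positivity
    have hQ3 : 0 ≤ Q ^ 3 := by positivity
    constructor <;>
      nlinarith [mul_le_mul_of_nonneg_left b1' (by omega : (0 : ℤ) ≤ Q),
        mul_le_mul_of_nonneg_left b1 (by omega : (0 : ℤ) ≤ Q),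
        mul_le_mul_of_nonneg_left b2' hQ2, mul_le_mul_of_nonneg_left b2 hQ2,
        mul_le_mul_of_nonneg_left b3' hQ3, mul_le_mul_of_nonneg_left b3 hQ3,
        mul_le_mul_of_nonneg_left hQ hQ3, mul_le_mul_of_nonneg_left hQ hQ2,
        mul_le_mul_of_nonneg_left hQ (by omega : (0 : ℤ) ≤ Q)]
  rw [e] at hzero
  obtain ⟨z0, r0⟩ := digit (b := v2 + Q * v3 + Q ^ 2 * a3) h0 hQ (by linear_combination hzero)
  obtain ⟨z1, r1⟩ := digit (b := v3 + Q * a3) h1 hQ (by linear_combination r0)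
  obtain ⟨z2, z3⟩ := digit h2 hQ r1
  simp only [a0, a3] at z0 z3
  omega

/-- coordinate of a fundamental root -/
def dlt (i m : ℕ) : ℤ := if m = i then 1 else 0

/-- the table conditions for small `q` -/
def SmallQ (Q : ℤ) (i r : ℕ) : Prop :=
  ¬ tOrd Q ∣ eRoot Q r ∧
    (tOrd Q ∣ eVec Q (vd 0 r - dlt i 0) (vd 1 r - dlt i 1) (vd 2 r - dlt i 2) (vd 3 r - dlt i 3) →
      (i = 1 → ∃ k < 24, ∀ m < 4, vd m k = vd m 18 + vd m r) → r = chevD4.simple i)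

instance (Q : ℤ) (i r : ℕ) : Decidable (SmallQ Q i r) := by unfold SmallQ; infer_instance

theorem chkSmallQ : ([2, 3, 4] : List ℤ).all (fun Q => (List.range 4).all fun i =>
    (List.range 24).all fun r => decide (SmallQ Q i r)) = true := by decide +kernel

theorem small_root : ∀ i < 4, ∀ r < 24, Small (vd 0 r) (vd 1 r) (vd 2 r) (vd 3 r) ∧
    Small (vd 0 r - dlt i 0) (vd 1 r - dlt i 1) (vd 2 r - dlt i 2) (vd 3 r - dlt i 3) := by
  decide +kernel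

theorem vd_zero : ∀ r < 24, ¬ (vd 0 r = 0 ∧ vd 1 r = 0 ∧ vd 2 r = 0 ∧ vd 3 r = 0) := by decide +kernel

theorem smallQ {Q : ℤ} (hQ : 2 ≤ Q) {i : ℕ} (hi : i < 4) {r : ℕ} (hr : r < 24) : SmallQ Q i r := by
  by_cases h : Q < 5
  · have h' := chkSmallQ
    simp only [List.all_eq_true, List.mem_range, decide_eq_true_eq] at h'
    exact h' Q (by simp; omega) i hi r hr
  · have h5 : 5 ≤ Q := by omega
    refine ⟨fun hd => vd_zero r hr (eVec_zero h5 (small_root i hi r hr).1 hd), fun hd _ => ?_⟩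
    obtain ⟨e0, e1, e2, e3⟩ := eVec_zero h5 (small_root i hi r hr).2 hd
    refine sysD4.vec_inj r hr _ (sysD4.wf.simple_lt i hi) fun j hj => ?_
    rw [sysD4.vec_simple i hi j hj, vd_eq]
    show vd j r = dlt i j
    have hj4 : j < 4 := hj
    interval_cases j <;> omega

theorem eRoot_ne {Q : ℤ} (hQ : 2 ≤ Q) {r : ℕ} (hr : r < 24) : ¬ tOrd Q ∣ eRoot Q r :=
  (smallQ hQ (i := 0) (by norm_num) hr).1

theorem eRoot_unique {Q : ℤ} (hQ : 2 ≤ Q) {i : ℕ} (hi : i < 4) {r : ℕ} (hr : r < 24)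
    (h : tOrd Q ∣ eRoot Q r - eRoot Q (chevD4.simple i))
    (hsum : i = 1 → ∃ k < 24, ∀ m < 4, vd m k = vd m 18 + vd m r) : r = chevD4.simple i := by
  refine (smallQ hQ hi hr).2 ?_ hsum
  have e : ∀ m < 4, vd m (chevD4.simple i) = dlt i m := fun m hm =>
    sysD4.vec_simple i hi m hm
  convert h using 1
  simp only [eRoot, eVec, e 0 (by norm_num), e 1 (by norm_num), e 2 (by norm_num), e 3 (by norm_num)]
  ring

end CfsgLib.TwistedTorus
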