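import Cfsg.Agent.TwistedTorus.D4Base
import Cfsg.Agent.TwistedTorus.D4Exp

/-!
A cyclic self-centralizing subgroup of order `(q³ - 1)(q + 1)` of `³D₄(q)`: the elements that become
diagonal after conjugation by a fixed element of the central `SL₂` over the field with `q⁶` elements.
-/

set_option autoImplicit false

namespace CfsgLib.TwistedTorus

open Cfsg.Lie CfsgLib.Chevalley
open scoped Matrix MatrixGroups

theorem mem_range_of_pow {K L : Type*} [Field K] [Fintype K] [Field L] (ι : K →+* L) {z : L}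
    (hz : z ^ Fintype.card K = z) : z ∈ ι.range := by
  classical
  by_contra hn
  set n := Fintype.card K with hn'
  have hn1 : 1 < n := Fintype.one_lt_card
  set f : Polynomial L := Polynomial.X ^ n - Polynomial.X with hf
  have hf0 : f ≠ 0 := FiniteField.X_pow_card_sub_X_ne_zero L hn1
  have hdeg : f.natDegree = n := FiniteField.X_pow_card_sub_X_natDegree_eq L hn1
  have hsub : insert z ((Finset.univ : Finset K).image ι) ⊆ f.roots.toFinset := by
    intro x hx
    rw [Multiset.mem_toFinset, Polynomial.mem_roots hf0]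
    rcases Finset.mem_insert.1 hx with rfl | hx
    · simp [hf, hz]
    · obtain ⟨y, -, rfl⟩ := Finset.mem_image.1 hx
      simp [hf, ← map_pow, hn', FiniteField.pow_card]
  have h1 := (Finset.card_le_card hsub).trans
    ((Multiset.toFinset_card_le _).trans ((Polynomial.card_roots' f).trans hdeg.le))
  rw [Finset.card_insert_of_notMem (fun h => by
      obtain ⟨y, -, rfl⟩ := Finset.mem_image.1 h
      exact hn ⟨y, rfl⟩),
    Finset.card_image_of_injective _ ι.injective, Finset.card_univ] at h1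
  omega

/-- An element commuting with a torus element in general position is a torus element. -/
theorem diag_of_commute {L : Type*} [Field L] {c : ℕ → Lˣ} {g : GL chevD4.Idx L}
    (hg : g ∈ chevD4.group L) (hne : ∀ r < 24, torusVal chevD4 c r ≠ 1)
    (huniq : ∀ i < 4, ∀ r < 24, torusVal chevD4 c r = torusVal chevD4 c (chevD4.simple i) →
      (i = 1 → ∃ k < 24, ∀ m < 4, vd m k = vd m 18 + vd m r) → r = chevD4.simple i)
    (hcomm : tor chevD4 L c * g = g * tor chevD4 L c) :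
    g ∈ chevD4.diagonalSubgroup L := by
  set T := tor chevD4 L c with hT
  have hTd : T ∈ chevD4.diagonalSubgroup L := by rw [sysD4.diagonal_eq]; exact ⟨c, rfl⟩
  obtain ⟨b, hb, n, u, hu, rfl⟩ := sysD4.normal_form_exists L hg
  obtain ⟨v, hv, e, rfl⟩ := (sysD4.mem_borel L).mp hb
  have hed : tor chevD4 L e ∈ chevD4.diagonalSubgroup L := by rw [sysD4.diagonal_eq]; exact ⟨e, rfl⟩
  set N : GL chevD4.Idx L := (n : GL chevD4.Idx L) with hN
  set d := N * (N⁻¹ * T * N * T⁻¹) * N⁻¹ with hd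
  have hnorm := sysD4.monomial_le_normalizer L n.2
  have hd' : N⁻¹ * T * N * T⁻¹ ∈ chevD4.diagonalSubgroup L := by
    refine mul_mem ?_ (inv_mem hTd)
    have := (Subgroup.mem_normalizer_iff.mp (inv_mem hnorm) _).mp hTd
    simpa using this
  have hdd : d ∈ chevD4.diagonalSubgroup L := (Subgroup.mem_normalizer_iff.mp hnorm _).mp hd'
  have conjU : ∀ {P : Set ℕ} {z : GL chevD4.Idx L}, z ∈ uSub chevD4 L P →
      T * z * T⁻¹ ∈ uSub chevD4 L P := by
    intro P z hz
    refine closure_conj_mem ?_ hz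
    rintro x ⟨r, t, ⟨hr, hp⟩, hx⟩
    obtain ⟨h1, h2⟩ := (sysD4.pos_iff r).1 hp
    rw [sysD4.eq_xG L hx, hT, sysD4.tor_conj L c h2]
    exact sysD4.xG_mem_uSub L hr h1 h2 _
  have hneg : ∀ z ∈ uSub chevD4 L (sysD4.flipSet L n),
      N * z * N⁻¹ ∈ chevD4.negUnipotent L := by
    intro z hz
    refine closure_conj_mem ?_ hz
    rintro y ⟨r, t, ⟨⟨hr, hr1⟩, -⟩, hy⟩
    obtain ⟨c', -, hct⟩ := sysD4.conj_root L n ⟨r, hr⟩
    rw [sysD4.eq_xG L hy,
      show sysD4.xG L r t = sysD4.xG L (⟨r, hr⟩ : Fin chevD4.nroots) t from rfl, (hct t).1]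
    exact sysD4.xG_mem_negUnipotent L hr1 _
  have hv' : T * v * T⁻¹ ∈ chevD4.posUnipotent L := by
    rw [← uSub_univ] at hv ⊢
    exact conjU hv
  have hTe : T * tor chevD4 L e * T⁻¹ = tor chevD4 L e := by
    rw [hT, ← map_mul, mul_comm, map_mul, mul_inv_cancel_right]
  have h1 : (T * v * T⁻¹ * tor chevD4 L e * d) * N * (T * u * T⁻¹) = v * tor chevD4 L e * N * u := by
    calc (T * v * T⁻¹ * tor chevD4 L e * d) * N * (T * u * T⁻¹)
        = T * v * T⁻¹ * (T * tor chevD4 L e * T⁻¹) * d * N * (T * u * T⁻¹) := by rw [hTe]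
      _ = T * (v * tor chevD4 L e * N * u) * T⁻¹ := by rw [hd]; group
      _ = _ := by rw [hcomm, mul_inv_cancel_right]
  obtain ⟨e1, e2⟩ := sysD4.normal_form_unique L
    (mul_mem (mul_mem (Subgroup.mem_sup_left hv') (Subgroup.mem_sup_right hed))
      (Subgroup.mem_sup_right hdd))
    (mul_mem (Subgroup.mem_sup_left hv) (Subgroup.mem_sup_right hed))
    (hneg _ (conjU hu)) (hneg _ hu) h1
  have fixU : ∀ {z : GL chevD4.Idx L}, z ∈ chevD4.posUnipotent L → T * z * T⁻¹ = z → z = 1 := by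
    intro z hz hfix
    rw [← uSub_univ] at hz
    obtain ⟨t, -, rfl⟩ := sysD4.exists_ordProd_half L sysD4.closed_univ hz
    have e : T * sysD4.ordProd L t (chevD4.nroots / 2) * T⁻¹ =
        sysD4.ordProd L (fun r => (torusVal chevD4 c r : L) * t r) (chevD4.nroots / 2) := by
      rw [← MulAut.conj_apply, Sys.ordProd, Sys.wG, map_list_prod, Sys.ordProd, Sys.wG,
        List.map_map, List.map_map, List.map_map]
      congr 1
      refine List.map_congr_left fun r hr => ?_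
      rw [List.mem_range'_1] at hr
      simp only [Function.comp_apply, MulAut.conj_apply]
      exact sysD4.tor_conj L c (show r < chevD4.nroots by
        simp only [show chevD4.nroots = 24 from rfl] at hr ⊢; omega) _
    rw [e] at hfix
    have ht : ∀ r, chevD4.nroots / 2 ≤ r → r < chevD4.nroots → t r = 0 := by
      intro r h1 h2
      have h3 := sysD4.ordProd_inj_half L hfix h1 h2
      by_contra h0
      exact hne r h2 (Units.ext (by
        simpa using (mul_eq_right₀ h0).1 h3))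
    rw [sysD4.ordProd_congr L (u := fun _ => 0) ht]
    refine List.prod_eq_one fun x hx => ?_
    simp only [List.map_map, List.mem_map, Function.comp_apply] at hx
    obtain ⟨r, -, rfl⟩ := hx
    exact sysD4.xG_zero L r
  have hu1 : u = 1 := fixU (uSub_le_posUnipotent L _ hu) e2
  have hvd : (T * v * T⁻¹)⁻¹ * v ∈ chevD4.posUnipotent L ⊓ chevD4.diagonalSubgroup L :=
    Subgroup.mem_inf.2 ⟨mul_mem (inv_mem hv') hv, by
      rw [show (T * v * T⁻¹)⁻¹ * v = tor chevD4 L e * d * (tor chevD4 L e)⁻¹ by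
        rw [inv_mul_eq_iff_eq_mul, ← mul_assoc, ← mul_assoc, e1, mul_inv_cancel_right]]
      exact mul_mem (mul_mem hed hdd) (inv_mem hed)⟩
  rw [sysD4.posUnipotent_inf_diagonal L, Subgroup.mem_bot, inv_mul_eq_one] at hvd
  have hv1 : v = 1 := fixU hv hvd
  subst hu1
  subst hv1
  rw [one_mul, mul_one] at hcomm ⊢
  refine mul_mem hed ?_
  have hnc : T * N = N * T := by
    refine mul_left_cancel (a := tor chevD4 L e) ?_
    rw [← mul_assoc, ← mul_assoc, ← hcomm, ← mul_assoc, hT, ← map_mul, ← map_mul, mul_comm]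
  have hval : ∀ s : Fin chevD4.nroots,
      torusVal chevD4 c (sysD4.perm L n s) = torusVal chevD4 c s := by
    intro s
    obtain ⟨κ, hκ, hct⟩ := sysD4.conj_root L n s
    have a1 : T * (N * sysD4.xG L s 1 * N⁻¹) * T⁻¹ = N * (T * sysD4.xG L s 1 * T⁻¹) * N⁻¹ := by
      calc T * (N * sysD4.xG L s 1 * N⁻¹) * T⁻¹
          = (T * N) * sysD4.xG L s 1 * (T * N)⁻¹ := by group
        _ = (N * T) * sysD4.xG L s 1 * (N * T)⁻¹ := by rw [hnc]
        _ = _ := by group
    rw [hT, (hct 1).1, sysD4.tor_conj L c (Fin.isLt _), sysD4.tor_conj L c s.isLt, mul_one,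
      (hct _).1] at a1
    have a2 := ChevField.xG_inj sysD4 (Fin.isLt _) a1
    exact Units.ext (mul_left_cancel₀ hκ (by rw [mul_comm κ, a2, mul_one]))
  have hfixsimple : ∀ i : Fin chevD4.rank, i.val ≠ 1 →
      (sysD4.perm L n (sysD4.simpleF i) : ℕ) = chevD4.simple i := fun i hi =>
    huniq i i.isLt _ (Fin.isLt _) (by rw [hval]; rfl) fun h => absurd h hi
  refine ChevField.mem_diagonal_of_simple_pos sysD4 n fun i => ?_
  suffices h : (sysD4.perm L n (sysD4.simpleF i) : ℕ) = chevD4.simple i by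
    rw [h]; exact sysD4.simple_pos i i.isLt
  by_cases hi : i.val = 1
  · refine huniq i i.isLt _ (Fin.isLt _) (by rw [hval]; rfl) fun _ => ?_
    refine ⟨(sysD4.perm L n ⟨19, by decide⟩ : ℕ), Fin.isLt _, fun m hm => ?_⟩
    have h18 : (sysD4.perm L n ⟨18, by decide⟩ : ℕ) = 18 := hfixsimple ⟨0, by decide⟩ (by simp)
    have h14 : sysD4.simpleF i = ⟨14, by decide⟩ := Fin.ext (by
      show chevD4.simple i = 14
      rw [hi]; rfl)
    have h := sysD4.vec_perm L n (k := ⟨19, by decide⟩) (r := ⟨18, by decide⟩)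
      (s := ⟨14, by decide⟩) 1 1 (fun m hm => by
        rw [vd_eq, vd_eq, vd_eq, Nat.cast_one, one_mul, one_mul]
        exact (by decide +kernel : ∀ m < 4, vd m 19 = vd m 18 + vd m 14) m hm) m hm
    rw [vd_eq, vd_eq, vd_eq, h18, Nat.cast_one, one_mul, one_mul] at h
    rw [h14]
    exact h
  · exact hfixsimple i hi

/-- the value of a torus element on a root, from the values on the fundamental roots -/
theorem torusVal_simple {L : Type*} [Field L] (c : ℕ → Lˣ) {r : ℕ} (hr : r < 24) :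
    torusVal chevD4 c r = torusVal chevD4 c 18 ^ vd 0 r * torusVal chevD4 c 14 ^ vd 1 r *
      torusVal chevD4 c 13 ^ vd 2 r * torusVal chevD4 c 12 ^ vd 3 r := by
  have e : torusVal chevD4 c r =
      ∏ m ∈ Finset.range 4, torusVal chevD4 c (chevD4.simple m) ^ vd m r := by
    simp only [torusVal, ← Finset.prod_zpow]
    rw [Finset.prod_comm]
    refine Finset.prod_congr rfl fun j hj => ?_
    rw [sysD4.cartan_vec j (Finset.mem_range.mp hj) r hr, ← List.sum_toFinset _ List.nodup_range,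
      List.toFinset_range, ChevField.zpow_finsetSum]
    refine Finset.prod_congr rfl fun m _ => ?_
    rw [← zpow_mul, vd_eq, mul_comm]
  rw [e, Finset.prod_range_succ, Finset.prod_range_succ, Finset.prod_range_succ,
    Finset.prod_range_succ, Finset.prod_range_zero, one_mul]
  rfl

theorem nat_tOrd {q : ℕ} (hq : 1 ≤ q) : tOrd (q : ℤ) = (((q ^ 3 - 1) * (q + 1) : ℕ) : ℤ) := by
  rw [tOrd, Nat.cast_mul, Nat.cast_sub (Nat.one_le_pow _ _ hq)]
  push_cast
  ring

/-- Values of a torus element whose conjugate by `x` is fixed by the twist. -/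
theorem twist_vals {L : Type*} [Field L] {q : ℕ} (hq : 1 ≤ q) (φ : L →+* L)
    (hφ : ∀ t, φ t = t ^ q) (x : GL chevD4.Idx L) {Δ : L} (hΔ : Δ ≠ 0) {m : GL chevD4.Idx L}
    (hmdef : m = (rel14 L).h (Units.mk0 Δ hΔ) * (rel14 L).w) (hsx : sig L φ x = x * m)
    (c : ℕ → Lˣ) (hfix : sig L φ (x * tor chevD4 L c * x⁻¹) = x * tor chevD4 L c * x⁻¹) :
    torusVal chevD4 c 18 ^ ((q ^ 3 - 1) * (q + 1)) = 1 ∧ ∀ r < 24,
      torusVal chevD4 c r = torusVal chevD4 c 18 ^ eRoot q r := by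
  rw [map_mul, map_mul, map_inv, hsx, sig_tor, mul_inv_rev] at hfix
  set c' := Triality.torShift L fun j => Units.map (φ : L →* L) (c j) with hc'
  have h1 : m * tor chevD4 L c' = tor chevD4 L c * m := by
    have h2 : x⁻¹ * (x * m * tor chevD4 L c' * (m⁻¹ * x⁻¹)) * x =
        x⁻¹ * (x * tor chevD4 L c * x⁻¹) * x := by rw [hfix]
    have h3 : m * tor chevD4 L c' * m⁻¹ = tor chevD4 L c := by
      calc m * tor chevD4 L c' * m⁻¹ = x⁻¹ * (x * m * tor chevD4 L c' * (m⁻¹ * x⁻¹)) * x := by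
            group
        _ = _ := h2
        _ = tor chevD4 L c := by group
    exact mul_inv_eq_iff_eq_mul.1 h3
  rw [hmdef, rel14_w, rel14_h, mul_assoc,
    show sysD4.nG L 14 1 = sysD4.nG L (chevD4.simple 1) 1 from rfl,
    sysD4.nG_tor L (show 1 < chevD4.rank by decide), ← mul_assoc, ← mul_assoc, mul_left_inj,
    ← map_mul, ← map_mul] at h1
  have hv : ∀ s < 24, torusVal chevD4 c (chevD4.reflectRoot 1 (Triality.pR s)) =
      torusVal chevD4 c s ^ q := by
    intro s hs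
    have hps : Triality.pR s < 24 := Triality.symT.p_lt s hs
    have hr : chevD4.reflectRoot 1 (Triality.pR s) < 24 :=
      sysD4.w_lt 1 (by decide) _ hps
    set r := chevD4.reflectRoot 1 (Triality.pR s) with hrdef
    have e1 := congrArg (fun g : GL chevD4.Idx L => (g : Matrix chevD4.Idx chevD4.Idx L)) h1
    simp only [sysD4.tor_val] at e1
    have e2 : torusVal chevD4 (Pi.mulSingle 1 (Units.mk0 Δ hΔ) *
        (c' * Pi.mulSingle 1 (torusVal chevD4 c' (chevD4.simple 1))⁻¹)) r =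
        torusVal chevD4 (c * Pi.mulSingle 1 (Units.mk0 Δ hΔ)) r :=
      Units.ext (dg_inj e1 (s := r) hr)
    rw [TwistedLie.torusVal_mul, TwistedLie.torusVal_mul (d := Pi.mulSingle 1 (Units.mk0 Δ hΔ)),
      mul_comm, mul_left_inj, TwistedLie.torusVal_mul,
      TwistedLie.torusVal_single L _ (show 1 < chevD4.rank by decide), inv_zpow'] at e2
    rw [← e2, ← TwistedLie.torusVal_w sysD4 L c' (show 1 < chevD4.rank by decide) hr, hrdef,
      sysD4.w_w 1 (by decide) _ hps, hc', Triality.torusVal_shift L _ hs, torusVal, torusVal,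
      ← Finset.prod_pow]
    refine Finset.prod_congr rfl fun j _ => ?_
    rw [show Units.map (φ : L →* L) (c j) = c j ^ q from Units.ext (by simp [hφ]),
      ← zpow_natCast, ← zpow_natCast, ← zpow_mul, ← zpow_mul, mul_comm]
  set A := torusVal chevD4 c 18 with hA
  set B := torusVal chevD4 c 14 with hB
  have hsimp : ∀ r < 24, torusVal chevD4 c r = A ^ vd 0 r * B ^ vd 1 r *
      torusVal chevD4 c 13 ^ vd 2 r * torusVal chevD4 c 12 ^ vd 3 r :=
    fun r hr => torusVal_simple c hr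
  have v18 := hv 18 (by norm_num)
  have v13 := hv 13 (by norm_num)
  have v12 := hv 12 (by norm_num)
  have v14 := hv 14 (by norm_num)
  rw [show chevD4.reflectRoot 1 (Triality.pR 18) = 16 by decide +kernel, hsimp 16 (by norm_num),
    show vd 0 16 = 0 by decide +kernel, show vd 1 16 = 1 by decide +kernel,
    show vd 2 16 = 1 by decide +kernel, show vd 3 16 = 0 by decide +kernel] at v18
  rw [show chevD4.reflectRoot 1 (Triality.pR 13) = 15 by decide +kernel, hsimp 15 (by norm_num),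
    show vd 0 15 = 0 by decide +kernel, show vd 1 15 = 1 by decide +kernel,
    show vd 2 15 = 0 by decide +kernel, show vd 3 15 = 1 by decide +kernel] at v13
  rw [show chevD4.reflectRoot 1 (Triality.pR 12) = 19 by decide +kernel, hsimp 19 (by norm_num),
    show vd 0 19 = 1 by decide +kernel, show vd 1 19 = 1 by decide +kernel,
    show vd 2 19 = 0 by decide +kernel, show vd 3 19 = 0 by decide +kernel] at v12
  rw [show chevD4.reflectRoot 1 (Triality.pR 14) = 9 by decide +kernel, hsimp 9 (by norm_num),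
    show vd 0 9 = 0 by decide +kernel, show vd 1 9 = -1 by decide +kernel,
    show vd 2 9 = 0 by decide +kernel, show vd 3 9 = 0 by decide +kernel] at v14
  simp only [zpow_zero, zpow_one, zpow_neg, one_mul, mul_one] at v18 v13 v12 v14
  set C := torusVal chevD4 c 13
  set D := torusVal chevD4 c 12
  have hB1 : B ^ (q + 1) = 1 := by rw [pow_succ, ← v14, inv_mul_cancel]
  have hC : C = A ^ q * B⁻¹ := by rw [← v18]; simp [mul_comm]
  have hD : D = A ^ (q * q) := by
    calc D = B * D * B⁻¹ := by simp [mul_comm]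
      _ = C ^ q * B⁻¹ := by rw [v13]
      _ = A ^ (q * q) * (B⁻¹ ^ q * B⁻¹) := by rw [hC, mul_pow, ← pow_mul, mul_assoc]
      _ = A ^ (q * q) := by rw [← pow_succ, inv_pow, hB1, inv_one, mul_one]
  have hBA : B = A ^ (((q : ℤ) ^ 3) - 1) := by
    have h3 : A * B = A ^ (q * q * q) := by rw [v12, hD, ← pow_mul]
    rw [zpow_sub, zpow_one, ← Nat.cast_pow, zpow_natCast,
      show q ^ 3 = q * q * q by ring, ← h3]
    simp [mul_comm]
  have hCA : C = A ^ ((q : ℤ) + 1 - (q : ℤ) ^ 3) := by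
    rw [hC, hBA, ← zpow_neg, ← zpow_natCast, ← zpow_add]
    congr 1
    ring
  have hDA : D = A ^ ((q : ℤ) ^ 2) := by
    rw [hD, ← Nat.cast_pow, zpow_natCast, sq]
  refine ⟨?_, fun r hr => ?_⟩
  · rw [← zpow_natCast, ← nat_tOrd hq, tOrd, zpow_mul, ← hBA, ← Nat.cast_one, ← Nat.cast_add,
      zpow_natCast, hB1]
  · rw [hsimp r hr, hBA, hCA, hDA, ← zpow_mul, ← zpow_mul, ← zpow_mul, ← zpow_add, ← zpow_add,
      ← zpow_add]
    congr 1
    simp only [eRoot, eVec]
    ring

/-- The exponent of the chosen generator is prime to the order of the torus. -/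
theorem tOrd_dvd {q : ℤ} (hq : 2 ≤ q) {k : ℤ}
    (h : q ^ 6 - 1 ∣ (2 * (1 + q ^ 3) - q * (1 + q ^ 2 + q ^ 4)) * k) : tOrd q ∣ k := by
  have ha : q ^ 2 - q + 1 ≠ 0 := by nlinarith
  have h2 : tOrd q ∣ (q ^ 3 + q ^ 2 - q - 2) * k := by
    rw [← Int.mul_dvd_mul_iff_left ha]
    have e1 : (q ^ 2 - q + 1) * tOrd q = q ^ 6 - 1 := by rw [tOrd]; ring
    rw [e1]
    have e2 : (q ^ 2 - q + 1) * ((q ^ 3 + q ^ 2 - q - 2) * k) =
        -((2 * (1 + q ^ 3) - q * (1 + q ^ 2 + q ^ 4)) * k) := by ring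
    rw [e2, dvd_neg]
    exact h
  have hcop : IsCoprime (q ^ 3 + q ^ 2 - q - 2) (tOrd q) := by
    refine IsCoprime.mul_right ?_ ⟨-1, q ^ 2 - 1, by ring⟩
    have a1 : IsCoprime (q ^ 2 - q - 1) (q ^ 3 - 1) := by
      have a2 : IsCoprime (q ^ 2 - q - 1) (2 * q) := by
        refine IsCoprime.mul_right ?_ ⟨-1, q - 1, by ring⟩
        obtain ⟨j, hj⟩ : Even (q * (q - 1)) := Int.even_mul_pred_self _
        exact ⟨-1, j, by linear_combination (-1 : ℤ) * hj⟩
      have h3 := a2.add_mul_left_right (q + 1)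
      rwa [show 2 * q + (q ^ 2 - q - 1) * (q + 1) = q ^ 3 - 1 by ring] at h3
    have h3 := a1.add_mul_right_left 1
    rwa [show q ^ 2 - q - 1 + 1 * (q ^ 3 - 1) = q ^ 3 + q ^ 2 - q - 2 by ring] at h3
  exact hcop.symm.dvd_of_dvd_mul_left h2

section main

variable {K : Type*} [Field K] [Fintype K] {q : ℕ} (hq : IsPrimePow q)
  (hK : Fintype.card K = q ^ 3) {L : Type*} [Field L] [Fintype L] (hL : Fintype.card L = q ^ 6)
  (ι : K →+* L)

/-- the subgroup that is diagonal after conjugation by `x` -/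
noncomputable def torH (x : GL chevD4.Idx L) : Subgroup ↥(twistedD4 K q) :=
  (chevD4.diagonalSubgroup L).comap
    (((MulAut.conj x⁻¹).toMonoidHom.comp (ChevField.gmap chevD4 ι)).comp (twistedD4 K q).subtype)

include hq hK hL ι in
theorem exists_torus : ∃ H : Subgroup ↥(twistedD4 K q), IsCyclic ↥H ∧
    Nat.card ↥H = (q ^ 3 - 1) * (q + 1) ∧
      Subgroup.centralizer (H : Set ↥(twistedD4 K q)) = H := by
  classical
  have hq2 : 2 ≤ q := hq.two_le
  obtain ⟨φ, hφ⟩ : ∃ φ : L →+* L, ∀ t, φ t = t ^ q := by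
    obtain ⟨p, hp, hc, n, rfl⟩ := TwistedLie.exists_char_pow hq (by norm_num) hL
    haveI := Fact.mk hp
    exact ⟨iterateFrobenius L p n, fun t => rfl⟩
  obtain ⟨y, hy⟩ := IsCyclic.exists_generator (α := Lˣ)
  have hoy : orderOf y = q ^ 6 - 1 := by
    rw [orderOf_eq_card_of_forall_mem_zpowers hy, Nat.card_units, Nat.card_eq_fintype_card, hL]
  have hy6 : y ^ (q ^ 6) = y := by
    rw [show q ^ 6 = (q ^ 6 - 1) + 1 from
      (Nat.sub_add_cancel (Nat.one_le_pow _ _ (by omega))).symm, pow_succ, ← hoy,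
      pow_orderOf_eq_one, one_mul]
  have hdvd : ∀ m : ℕ, y ^ m = 1 → q ^ 6 - 1 ∣ m := fun m h => hoy ▸ orderOf_dvd_of_pow_eq_one h
  set z : Lˣ := y ^ (1 + q ^ 3) with hzdef
  set w : Lˣ := y ^ (1 + q ^ 2 + q ^ 4) with hwdef
  have hz3 : z ^ (q ^ 3) = z := by
    rw [hzdef, ← pow_mul, add_mul, one_mul, ← pow_add q 3 3, pow_add, hy6]
    rw [mul_comm, pow_add, pow_one]
  have hw2 : w ^ (q ^ 2) = w := by
    rw [hwdef, ← pow_mul, add_mul, add_mul, one_mul, ← pow_add q 2 2, ← pow_add q 4 2, pow_add,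
      hy6, ← pow_succ]
    ring_nf
  have hwz : w * w ^ q = z * z ^ q * z ^ (q ^ 2) := by
    rw [hzdef, hwdef, ← pow_mul, ← pow_mul, ← pow_mul, ← pow_add, ← pow_add, ← pow_add]
    ring_nf
  have hwq : w ^ q ≠ w := by
    intro h
    have h1 : w ^ (q - 1) = 1 := by
      have : w ^ (q - 1) * w = 1 * w := by
        rw [← pow_succ, Nat.sub_add_cancel (by omega), h, one_mul]
      exact mul_right_cancel this
    have h2 : q ^ 6 - 1 ∣ (1 + q ^ 2 + q ^ 4) * (q - 1) :=
      hdvd _ (by rw [pow_mul]; exact h1)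
    have h3 := Nat.le_of_dvd (Nat.mul_pos (by positivity) (by omega)) h2
    obtain ⟨k, rfl⟩ : ∃ k, q = k + 1 := ⟨q - 1, by omega⟩
    rw [Nat.add_sub_cancel] at h3
    have h4 : (1 + (k + 1) ^ 2 + (k + 1) ^ 4) * k + 1 < (k + 1) ^ 6 := by
      ring_nf
      nlinarith [Nat.zero_le (k ^ 2), Nat.zero_le (k ^ 3), Nat.zero_le (k ^ 4), Nat.zero_le (k ^ 5)]
    omega
  set μ : L := (w : L)⁻¹ with hμdef
  set μ' : L := ((w : L) ^ q)⁻¹ with hμ'def
  have hφw : φ (w : L) = (w : L) ^ q := hφ _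
  have hφwq : φ ((w : L) ^ q) = (w : L) := by
    rw [hφ, ← pow_mul, ← sq, ← Units.val_pow_eq_pow_val, hw2]
  have hμφ : φ μ = μ' := by rw [hμdef, map_inv₀, hφw]
  have hμ'φ : φ μ' = μ := by rw [hμ'def, map_inv₀, hφwq]
  set Δ : L := μ' - μ with hΔdef
  have hΔ : Δ ≠ 0 := fun h => hwq (Units.ext (by
    rw [Units.val_pow_eq_pow_val]
    exact inv_injective (sub_eq_zero.1 h)))
  have hΔφ : φ Δ = -Δ := by rw [hΔdef, map_sub, hμφ, hμ'φ, neg_sub]
  obtain ⟨M, hM⟩ : ∃ M : SL(2, L), (M : Matrix (Fin 2) (Fin 2) L) = !![Δ⁻¹, 1; μ * Δ⁻¹, μ'] :=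
    ⟨⟨!![Δ⁻¹, 1; μ * Δ⁻¹, μ'], by
      rw [Matrix.det_fin_two_of, one_mul, mul_comm μ, ← mul_sub, ← hΔdef, inv_mul_cancel₀ hΔ]⟩, rfl⟩
  obtain ⟨M', hM'⟩ : ∃ M' : SL(2, L), M' = M * SL2Rel.dia (Units.mk0 Δ hΔ) * SL2Rel.weyl :=
    ⟨_, rfl⟩
  have hMφ : ∀ i j, M'.1 i j = φ (M.1 i j) := by
    intro i j
    rw [hM', Matrix.SpecialLinearGroup.coe_mul, Matrix.SpecialLinearGroup.coe_mul, hM,
      SL2Rel.dia_val, SL2Rel.weyl_val]
    fin_cases i <;> fin_cases j <;>
      simp [Matrix.mul_apply, Fin.sum_univ_two, hΔφ, hμφ, hμ'φ, hΔ, inv_neg]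
  set R := rel14 L with hRdef
  set x := R.lift M with hxdef
  set Φ : ↥(twistedD4 K q) →* GL chevD4.Idx L :=
    (((MulAut.conj x⁻¹).toMonoidHom.comp (ChevField.gmap chevD4 ι)).comp
      (twistedD4 K q).subtype) with hΦdef
  have hΦ : ∀ g : ↥(twistedD4 K q), Φ g = x⁻¹ * ChevField.gmap chevD4 ι (g : GL chevD4.Idx K) * x := by
    intro g
    simp [hΦdef]
  have hH : ∀ g : ↥(twistedD4 K q), g ∈ torH (q := q) ι x ↔ Φ g ∈ chevD4.diagonalSubgroup L :=
    fun g => Iff.rfl
  -- the twist on a diagonal conjugate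
  set m := R.h (Units.mk0 Δ hΔ) * R.w with hmdef
  have hsx : sig L φ x = x * m := by
    rw [hxdef, sig_lift L φ M M' hMφ, hM', map_mul, map_mul, mul_assoc]
    congr 1
    show R.toFun _ * R.toFun _ = _
    rw [show SL2Rel.dia (Units.mk0 Δ hΔ) = 1 * SL2Rel.dia (Units.mk0 Δ hΔ) from (one_mul _).symm,
      R.toFun_mul_dia, show (SL2Rel.weyl : SL(2, L)) = 1 * SL2Rel.weyl from (one_mul _).symm,
      R.toFun_mul_weyl, R.toFun_one, one_mul, one_mul]
  have hvals : ∀ (g : ↥(twistedD4 K q)) (c : ℕ → Lˣ), Φ g = tor chevD4 L c →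
      torusVal chevD4 c 18 ^ ((q ^ 3 - 1) * (q + 1)) = 1 ∧ ∀ r < 24,
        torusVal chevD4 c r = torusVal chevD4 c 18 ^ eRoot q r := by
    intro g c hc
    refine twist_vals (by omega) φ hφ x hΔ hmdef hsx c ?_
    have hgc : x * tor chevD4 L c * x⁻¹ = ChevField.gmap chevD4 ι (g : GL chevD4.Idx K) := by
      rw [← hc, hΦ]; group
    rw [hgc]
    exact sig_gmap_gen L φ hq hK ι hφ g.2
  -- the first value, as a homomorphism
  have hdiag : ∀ g : ↥(torH (q := q) ι x), ∃ c, Φ g = tor chevD4 L c := fun g => by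
    have h := (hH g).1 g.2
    rw [sysD4.diagonal_eq] at h
    obtain ⟨c, hc⟩ := h
    exact ⟨c, hc.symm⟩
  choose cc hcc using hdiag
  let Λ : ↥(torH (q := q) ι x) →* Lˣ := MonoidHom.mk' (fun g => torusVal chevD4 (cc g) 18)
    (fun g g' => by
      have e : tor chevD4 L (cc (g * g')) = tor chevD4 L (cc g * cc g') := by
        rw [map_mul, ← hcc, ← hcc, ← hcc, Subgroup.coe_mul, map_mul]
      have e1 := congrArg (fun g : GL chevD4.Idx L => (g : Matrix chevD4.Idx chevD4.Idx L)) e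
      simp only [sysD4.tor_val] at e1
      rw [← TwistedLie.torusVal_mul]
      exact Units.ext (dg_inj e1 (s := 18) (show 18 < chevD4.nroots by decide)))
  have hΦinj : Function.Injective Φ := fun g g' h => by
    rw [hΦ, hΦ, mul_left_inj, mul_right_inj] at h
    exact Subtype.ext (ChevField.gmap_injective ι h)
  have hΛinj : Function.Injective Λ := by
    refine (injective_iff_map_eq_one Λ).2 fun g hg => Subtype.ext (hΦinj ?_)
    rw [hcc g, OneMemClass.coe_one, map_one]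
    refine sysD4.tor_eq_one_of_simple L _ fun i hi => ?_
    have hl : chevD4.simple i < 24 := sysD4.wf.simple_lt i hi
    rw [(hvals _ _ (hcc g)).2 _ hl, show torusVal chevD4 (cc g) 18 = 1 from hg, one_zpow,
      Units.val_one]
  haveI hcyc : IsCyclic ↥(torH (q := q) ι x) := isCyclic_of_injective Λ hΛinj
  set N0 : ℕ := (q ^ 3 - 1) * (q + 1) with hN0
  have hN0dvd : N0 ∣ q ^ 6 - 1 := by
    refine ⟨q * q + 1 - q, ?_⟩
    have hkq : q ≤ q * q := Nat.le_mul_self q
    rw [hN0]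
    zify [Nat.one_le_pow 3 q (by omega), Nat.one_le_pow 6 q (by omega),
      (by omega : q ≤ q * q + 1)]
    ring
  have hcard_le : Nat.card ↥(torH (q := q) ι x) ≤ N0 := by
    have hsub : Λ.range ≤ (powMonoidHom N0 : Lˣ →* Lˣ).ker := by
      rintro _ ⟨g, rfl⟩
      exact (hvals _ _ (hcc g)).1
    have h1 : Nat.card ↥(powMonoidHom N0 : Lˣ →* Lˣ).ker = N0 := by
      rw [IsCyclic.card_powMonoidHom_ker, Nat.card_units, Nat.card_eq_fintype_card, hL,
        Nat.gcd_eq_right hN0dvd]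
    rw [Nat.card_congr (MonoidHom.ofInjective hΛinj).toEquiv]
    exact (Nat.card_le_card_of_injective _ (Subgroup.inclusion_injective hsub)).trans h1.le
  -- the generator
  have hzK : (z : L) ∈ ι.range := mem_range_of_pow ι (by
    rw [hK, ← Units.val_pow_eq_pow_val, hz3])
  obtain ⟨z0, hz0⟩ := hzK
  have hz0' : z0 ≠ 0 := fun e => z.ne_zero (by rw [← hz0, e, map_zero])
  set τ : L := μ + μ' with hτ
  have hτq : τ ^ q = τ := by rw [← hφ, hτ, map_add, hμφ, hμ'φ, add_comm]
  obtain ⟨τ0, hτ0⟩ : τ ∈ ι.range := mem_range_of_pow ι (by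
    rw [hK, pow_succ, pow_mul, pow_succ, pow_mul, pow_one, hτq, hτq, hτq])
  have hτ0q : τ0 ^ q = τ0 := ι.injective (by rw [map_pow, hτ0, hτq])
  set d0 : ℕ → Kˣ := TwistedLie.D4.cJ q (Units.mk0 z0 hz0') with hd0
  obtain ⟨g0, hg0⟩ : ∃ g0 : ↥(twistedD4 K q), (g0 : GL chevD4.Idx K) =
      sysD4.nG K 14 1 * sysD4.xG K 14 (-τ0) * tor chevD4 K d0 := by
    refine ⟨⟨_, mul_mem (mul_mem ?_ ?_) ?_⟩, rfl⟩
    · have h := TwistedLie.D4.n2_mem (K := K) hq hK
      simp [TwistedLie.nL] at h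
      exact h
    · exact TwistedLie.D4.fix_mem (Or.inl rfl) (by rw [TwistedLie.D4.negq hq hK, hτ0q])
    · exact TwistedLie.D4.TT_mem hq hK ⟨d0, TwistedLie.D4.cJ_mem_Cset hq hK _, rfl⟩
  set d : ℕ → Lˣ := fun j => Units.map (ι : K →* L) (d0 j) with hd
  have hdv : ∀ j < 4, d j = [z, 1, z ^ q, z ^ (q ^ 2)].getD j 1 := by
    intro j hj
    interval_cases j <;>
      simp [hd, hd0, TwistedLie.D4.cJ, Units.ext_iff, hz0]
  have hd14 : torusVal chevD4 d 14 = (w * w ^ q)⁻¹ := by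
    rw [TwistedLie.D4.tv14, hdv 0 (by norm_num), hdv 1 (by norm_num), hdv 2 (by norm_num),
      hdv 3 (by norm_num), hwz]
    simp [mul_comm, mul_left_comm]
  have hg0L : ChevField.gmap chevD4 ι (g0 : GL chevD4.Idx K) =
      R.lift (SL2Rel.weyl * SL2Rel.upper (-τ)) * tor chevD4 L d := by
    rw [hg0, map_mul, map_mul, ChevField.gmap_nG sysD4, ChevField.gmap_xG sysD4,
      ChevField.gmap_tor sysD4, map_one, map_neg, hτ0, map_mul]
    congr 1
    show _ = R.toFun _ * R.toFun _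
    rw [show (SL2Rel.weyl : SL(2, L)) = 1 * SL2Rel.weyl from (one_mul _).symm, R.toFun_mul_weyl,
      show SL2Rel.upper (-τ) = 1 * SL2Rel.upper (-τ) from (one_mul _).symm, R.toFun_mul_upper,
      R.toFun_one, one_mul, one_mul]
    rfl
  set c0 : ℕ → Lˣ := Pi.mulSingle 1 (w ^ q) * d with hc0
  have hΦg0 : Φ g0 = tor chevD4 L c0 := by
    have hkey : SL2Rel.weyl * SL2Rel.upper (-τ) * dscale L (torusVal chevD4 d 14) M =
        M * SL2Rel.dia (w ^ q) := by
      rw [hd14]
      apply Matrix.SpecialLinearGroup.ext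
      intro i j
      have hw0 : (w : L) ≠ 0 := w.ne_zero
      rw [Matrix.SpecialLinearGroup.coe_mul, Matrix.SpecialLinearGroup.coe_mul,
        Matrix.SpecialLinearGroup.coe_mul, SL2Rel.weyl_val, SL2Rel.upper_val, SL2Rel.dia_val]
      simp only [dscale, hM]
      fin_cases i <;> fin_cases j <;>
        simp [Matrix.mul_apply, Fin.sum_univ_two, hτ, hμdef, hμ'def] <;> field_simp <;> ring
    rw [hΦ, hg0L, hxdef, mul_assoc, mul_assoc, tor_lift, ← mul_assoc (R.lift (_ * _)), ← map_mul,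
      hkey, map_mul, ← mul_assoc, ← mul_assoc, inv_mul_cancel, one_mul, hc0, map_mul (tor chevD4 L)]
    congr 1
    show R.toFun _ = _
    rw [show SL2Rel.dia (w ^ q) = 1 * SL2Rel.dia (w ^ q) from (one_mul _).symm, R.toFun_mul_dia,
      R.toFun_one, one_mul]
    rfl
  have hg0H : g0 ∈ torH (q := q) ι x := by
    rw [hH, hΦg0, sysD4.diagonal_eq]
    exact ⟨c0, rfl⟩
  set A0 := torusVal chevD4 c0 18 with hA0
  have hA0y : A0 = y ^ (2 * (1 + (q : ℤ) ^ 3) - q * (1 + (q : ℤ) ^ 2 + (q : ℤ) ^ 4)) := by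
    rw [hA0, TwistedLie.D4.tv18, hc0, Pi.mul_apply, Pi.mul_apply, Pi.mulSingle_eq_same,
      Pi.mulSingle_eq_of_ne (by norm_num : (0 : ℕ) ≠ 1), one_mul, hdv 0 (by norm_num),
      hdv 1 (by norm_num)]
    simp only [List.getD_cons_zero, List.getD_cons_succ, mul_one, hzdef, hwdef]
    rw [← zpow_natCast y, ← zpow_natCast y, ← zpow_natCast, ← zpow_mul, ← zpow_mul, ← zpow_sub]
    congr 1
    push_cast
    ring
  have hA0ord : ∀ k : ℤ, A0 ^ k = 1 → (((q ^ 3 - 1) * (q + 1) : ℕ) : ℤ) ∣ k := by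
    intro k hk
    rw [hA0y, ← zpow_mul] at hk
    have h1 := orderOf_dvd_iff_zpow_eq_one.2 hk
    rw [hoy, Nat.cast_sub (Nat.one_le_pow 6 q (by omega))] at h1
    push_cast at h1
    rw [← nat_tOrd (by omega)]
    exact tOrd_dvd (by exact_mod_cast hq2) h1
  have hgen := hvals _ c0 hΦg0
  have hne : ∀ r < 24, torusVal chevD4 c0 r ≠ 1 := by
    intro r hr h
    rw [hgen.2 r hr] at h
    refine eRoot_ne (Q := (q : ℤ)) (by exact_mod_cast hq2) hr ?_
    rw [nat_tOrd (q := q) (by omega)]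
    exact hA0ord _ h
  have huniq : ∀ i < 4, ∀ r < 24, torusVal chevD4 c0 r = torusVal chevD4 c0 (chevD4.simple i) →
      (i = 1 → ∃ k < 24, ∀ m < 4, vd m k = vd m 18 + vd m r) → r = chevD4.simple i := by
    intro i hi r hr h hsum
    rw [hgen.2 r hr, hgen.2 _ (sysD4.wf.simple_lt i hi), ← div_eq_one, div_eq_mul_inv, ← zpow_sub] at h
    refine eRoot_unique (Q := (q : ℤ)) (by exact_mod_cast hq2) hi hr ?_ hsum
    rw [nat_tOrd (q := q) (by omega)]
    exact hA0ord _ h
  refine ⟨torH (q := q) ι x, hcyc, le_antisymm hcard_le ?_, le_antisymm ?_ ?_⟩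
  · have hord : N0 ∣ orderOf (⟨g0, hg0H⟩ : ↥(torH (q := q) ι x)) := by
      rw [← orderOf_injective Λ hΛinj]
      have e1 : tor chevD4 L (cc ⟨g0, hg0H⟩) = tor chevD4 L c0 := by rw [← hcc, hΦg0]
      have e2 := congrArg (fun g : GL chevD4.Idx L => (g : Matrix chevD4.Idx chevD4.Idx L)) e1
      simp only [sysD4.tor_val] at e2
      have e3 : Λ ⟨g0, hg0H⟩ = A0 := Units.ext (dg_inj e2 (s := 18) (show 18 < chevD4.nroots by decide))
      rw [e3]
      exact Int.natCast_dvd_natCast.1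
        (hA0ord (orderOf A0 : ℤ) (by rw [zpow_natCast]; exact pow_orderOf_eq_one A0))
    exact Nat.le_of_dvd Nat.card_pos (hord.trans (orderOf_dvd_natCard _))
  · intro g hg
    rw [hH]
    have hcom : Φ g0 * Φ g = Φ g * Φ g0 := by
      rw [← map_mul, ← map_mul, Subgroup.mem_centralizer_iff.1 hg g0 hg0H]
    rw [hΦg0] at hcom
    refine diag_of_commute ?_ hne huniq hcom
    rw [hΦ]
    have hxm : x ∈ chevD4.group L := by
      have : x ∈ R.lift.range := ⟨M, rfl⟩
      rw [SL2Rel.range_lift] at this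
      refine (Subgroup.closure_le _).2 ?_ this
      rintro _ (⟨t, rfl⟩ | ⟨t, rfl⟩)
      · exact sysD4.xG_mem L (show 14 < chevD4.nroots by decide) t
      · exact sysD4.xG_mem L (show chevD4.neg (chevD4.simple 1) < chevD4.nroots by decide) t
    refine mul_mem (mul_mem (inv_mem hxm) (ChevField.gmap_mem sysD4 ι ?_)) hxm
    exact (TwistedLie.D4.tw hq hK).G_mem_group g.2
  · intro g hg
    rw [Subgroup.mem_centralizer_iff]
    intro h hh
    exact hΦinj (by rw [map_mul, map_mul]; exact sysD4.diagonal_comm L ((hH h).1 hh) ((hH g).1 hg))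

end main

/-- `³D₄(q)` has a cyclic self-centralizing subgroup of order `(q³ - 1)(q + 1)`. -/
theorem exists_cyclic_self_centralizing {K : Type*} [Field K] [Fintype K] {q : ℕ}
    (hq : IsPrimePow q) (hK : Fintype.card K = q ^ 3) :
    ∃ H : Subgroup ↥(twistedD4 K q), IsCyclic ↥H ∧
      Nat.card ↥H = (q ^ 3 - 1) * (q + 1) ∧
        Subgroup.centralizer (H : Set ↥(twistedD4 K q)) = H := by
  obtain ⟨p, hp, hc, n, -⟩ := TwistedLie.exists_char_pow hq three_ne_zero hK
  haveI := Fact.mk hp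
  let L := FiniteField.Extension K p 2
  letI : Fintype L := Fintype.ofFinite L
  refine exists_torus hq hK (L := L) ?_ (algebraMap K L)
  rw [← Nat.card_eq_fintype_card, FiniteField.natCard_extension, Nat.card_eq_fintype_card, hK]
  ring

end CfsgLib.TwistedTorus
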