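import Cfsg.Agent.TwistedLie.D4Tw
import Cfsg.Agent.Triality.Main
import Cfsg.Agent.Chevalley.SLTwoHom

/-!
The twisting map of `³D₄` on torus elements and on the `SL₂` of the central node, and base change.
-/

set_option autoImplicit false

namespace CfsgLib.TwistedTorus

open Cfsg.Lie CfsgLib.Chevalley
open scoped Matrix MatrixGroups

variable (L : Type*) [Field L] (φ : L →+* L)

/-- the twisting map -/
noncomputable def sig : GL chevD4.Idx L →* GL chevD4.Idx L :=
  TwistedLie.twistHom L graphD4a φ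

theorem sig_eq (g : GL chevD4.Idx L) : sig L φ g = Triality.cj L (ChevField.gmap chevD4 φ g) := rfl

theorem sig_x {r : ℕ} (hr : r < 24) (t : L) :
    sig L φ (sysD4.xG L r t) = sysD4.xG L (Triality.pR r) ((Triality.eR r : L) * φ t) :=
  TwistedLie.twistHom_x sysD4 L graphD4a φ hr t

theorem sig_x14 (t : L) : sig L φ (sysD4.xG L 14 t) = sysD4.xG L 14 (φ t) := by
  rw [sig_x L φ (by norm_num), show Triality.pR 14 = 14 from rfl,
    show Triality.eR 14 = 1 from rfl, Int.cast_one, one_mul]

theorem sig_tor (c : ℕ → Lˣ) :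
    sig L φ (tor chevD4 L c) =
      tor chevD4 L (Triality.torShift L fun j => Units.map (φ : L →* L) (c j)) := by
  rw [sig_eq, ChevField.gmap_tor sysD4, Triality.cj_tor]

theorem sig_nG14 : sig L φ (sysD4.nG L 14 1) = sysD4.nG L 14 1 := by
  rw [sysD4.nG_eq, map_mul, map_mul, sig_x14, sig_x L φ (show chevD4.neg 14 < 24 by decide),
    show Triality.pR (chevD4.neg 14) = chevD4.neg 14 by decide,
    show Triality.eR (chevD4.neg 14) = 1 by decide +kernel, Int.cast_one, one_mul, map_one,
    map_neg, map_inv₀, map_one]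

/-- the relations of the central node -/
noncomputable def rel14 : SL2Rel L (GL chevD4.Idx L) :=
  sysD4.sl2Rel L (i := 1) (show 1 < chevD4.rank by decide)

theorem rel14_x (t : L) : (rel14 L).x t = sysD4.xG L 14 t := rfl

theorem rel14_w : (rel14 L).w = sysD4.nG L 14 1 := rfl

theorem rel14_h (a : Lˣ) : (rel14 L).h a = tor chevD4 L (Pi.mulSingle 1 a) := rfl

theorem sig_h (a : Lˣ) : sig L φ ((rel14 L).h a) = (rel14 L).h (Units.map (φ : L →* L) a) := by
  rw [rel14_h, rel14_h, sig_tor]
  apply Units.ext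
  rw [sysD4.tor_val, sysD4.tor_val]
  refine dg_congr fun s _ => ?_
  congr 1
  refine Finset.prod_congr rfl fun j hj => ?_
  have hj4 : j < 4 := Finset.mem_range.mp hj
  congr 1
  interval_cases j <;> simp [Triality.torShift, Triality.qN, symP]

theorem sig_lift (g g' : SL(2, L)) (h : ∀ i j, g'.1 i j = φ (g.1 i j)) :
    sig L φ ((rel14 L).lift g) = (rel14 L).lift g' := by
  show sig L φ ((rel14 L).toFun g) = (rel14 L).toFun g'
  simp only [SL2Rel.toFun, h]
  by_cases hc : g.1 1 0 = 0
  · have ha : g.1 0 0 ≠ 0 := fun e => by simpa [e, hc] using SL2Rel.det_eq g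
    rw [hc, map_zero, SL2Rel.val_zero _ ha, SL2Rel.val_zero _ ((map_ne_zero φ).2 ha), map_mul,
      sig_h, rel14_x, rel14_x, sig_x14, map_div₀]
    congr 2
    exact Units.ext rfl
  · have hc' : φ (g.1 1 0) ≠ 0 := (map_ne_zero φ).2 hc
    rw [SL2Rel.val_ne _ hc (Units.mk0 _ (neg_ne_zero.mpr (inv_ne_zero hc))) rfl,
      SL2Rel.val_ne _ hc' (Units.mk0 _ (neg_ne_zero.mpr (inv_ne_zero hc'))) rfl, map_mul, map_mul,
      map_mul, sig_h, rel14_w, sig_nG14, rel14_x, rel14_x, rel14_x, rel14_x, sig_x14, sig_x14,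
      map_div₀, map_div₀]
    congr 4
    exact Units.ext (by simp)

/-- scaling the off-diagonal entries -/
def dscale (β : Lˣ) (g : SL(2, L)) : SL(2, L) :=
  ⟨!![g.1 0 0, (β : L) * g.1 0 1; (β : L)⁻¹ * g.1 1 0, g.1 1 1], by
    rw [Matrix.det_fin_two_of]
    have h := SL2Rel.det_eq g
    have hb := β.ne_zero
    field_simp
    linear_combination h⟩

theorem tor_lift (d : ℕ → Lˣ) (g : SL(2, L)) :
    tor chevD4 L d * (rel14 L).lift g =
      (rel14 L).lift (dscale L (torusVal chevD4 d 14) g) * tor chevD4 L d := by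
  set R := rel14 L with hR
  set β := torusVal chevD4 d 14 with hβ
  set T := tor chevD4 L d
  have hx : ∀ t, T * R.x t = R.x ((β : L) * t) * T := fun t => by
    rw [← mul_inv_eq_iff_eq_mul, hR, rel14_x, rel14_x]
    exact sysD4.tor_conj L d (show 14 < chevD4.nroots by decide) t
  have hy : ∀ t, T * R.y t = R.y ((β : L)⁻¹ * t) * T := fun t => by
    rw [← mul_inv_eq_iff_eq_mul]
    refine (sysD4.tor_conj L d (show chevD4.neg 14 < chevD4.nroots by decide) t).trans ?_
    have e : ((torusVal chevD4 d (chevD4.neg 14) : Lˣ) : L) = (β : L)⁻¹ :=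
      eq_inv_of_mul_eq_one_right ((sysD4.torusVal_isChar L d).1 14 (by decide))
    rw [e]
    rfl
  have hh : ∀ a, T * R.h a = R.h a * T := fun a => by
    show tor chevD4 L d * tor chevD4 L _ = tor chevD4 L _ * tor chevD4 L d
    rw [← map_mul, ← map_mul, mul_comm]
  have hw : T * R.w = R.h β * R.w * T := by
    have h1 := R.rel 1
    rw [map_one, one_mul, Units.val_one, inv_one] at h1
    rw [h1]
    calc T * (R.x 1 * R.y (-1) * R.x 1) = T * R.x 1 * R.y (-1) * R.x 1 := by
          simp only [mul_assoc]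
      _ = R.x (β : L) * (T * R.y (-1)) * R.x 1 := by rw [hx, mul_one]; simp only [mul_assoc]
      _ = R.x (β : L) * R.y (-(β : L)⁻¹) * (T * R.x 1) := by
          rw [hy, mul_neg_one]; simp only [mul_assoc]
      _ = R.x (β : L) * R.y (-(β : L)⁻¹) * R.x (β : L) * T := by
          rw [hx, mul_one]; simp only [mul_assoc]
      _ = R.h β * R.w * T := by rw [R.rel]
      _ = R.h β * (R.x 1 * R.y (-1) * R.x 1) * T := by rw [h1]
  show T * R.toFun g = R.toFun (dscale L β g) * T
  simp only [SL2Rel.toFun, dscale, Matrix.of_apply, Matrix.cons_val', Matrix.cons_val_zero,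
    Matrix.cons_val_one, Matrix.cons_val_fin_one]
  have hb := β.ne_zero
  by_cases hc : g.1 1 0 = 0
  · have ha : g.1 0 0 ≠ 0 := fun e => by simpa [e, hc] using SL2Rel.det_eq g
    rw [hc, mul_zero, R.val_zero ha, R.val_zero ha, ← mul_assoc, hh, mul_assoc, hx, ← mul_assoc,
      mul_div_assoc]
  · set u := Units.mk0 (-(g.1 1 0)⁻¹) (neg_ne_zero.mpr (inv_ne_zero hc))
    rw [R.val_ne hc u rfl, R.val_ne (mul_ne_zero (inv_ne_zero hb) hc) (u * β) (by
      simp [u, mul_inv, mul_comm]), map_mul]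
    calc T * (R.x (g.1 0 0 / g.1 1 0) * R.h u * R.w * R.x (g.1 1 1 / g.1 1 0))
        = T * R.x (g.1 0 0 / g.1 1 0) * R.h u * R.w * R.x (g.1 1 1 / g.1 1 0) := by
          simp only [mul_assoc]
      _ = R.x ((β : L) * (g.1 0 0 / g.1 1 0)) * (T * R.h u) * R.w * R.x (g.1 1 1 / g.1 1 0) := by
          rw [hx]; simp only [mul_assoc]
      _ = R.x ((β : L) * (g.1 0 0 / g.1 1 0)) * R.h u * (T * R.w) * R.x (g.1 1 1 / g.1 1 0) := by
          rw [hh]; simp only [mul_assoc]
      _ = R.x ((β : L) * (g.1 0 0 / g.1 1 0)) * R.h u * R.h β * R.w *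
            (T * R.x (g.1 1 1 / g.1 1 0)) := by
          rw [hw]; simp only [mul_assoc]
      _ = _ := by
          rw [hx, ← mul_assoc, mul_assoc (R.x _) (R.h u) (R.h β)]
          congr 5
          · field_simp
          · field_simp

/-- base change commutes with the twist on the twisted group -/
theorem sig_gmap_gen {K : Type*} [Field K] [Fintype K] {q : ℕ} (hq : IsPrimePow q)
    (hK : Fintype.card K = q ^ 3) (ι : K →+* L) (hφ : ∀ t, φ t = t ^ q) {g : GL chevD4.Idx K}
    (hg : g ∈ twistedD4 K q) :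
    sig L φ (ChevField.gmap chevD4 ι g) = ChevField.gmap chevD4 ι g := by
  have hle : twistedD4 K q ≤
      ((sig L φ).comp (ChevField.gmap chevD4 ι)).eqLocus (ChevField.gmap chevD4 ι) := by
    refine TwistedLie.gen_le sysD4 K fun w hw => ?_
    show sig L φ (ChevField.gmap chevD4 ι (sysD4.wG K w)) = ChevField.gmap chevD4 ι (sysD4.wG K w)
    have hlt := TwistedLie.D4.word_roots hq hK w hw
    have hfix := TwistedLie.D4.sigma_gen hq hK w hw
    rw [TwistedLie.D4.sigma, TwistedLie.twistHom_wG sysD4 K graphD4a _ w hlt] at hfix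
    conv_rhs => rw [← hfix, ChevField.gmap_wG sysD4]
    rw [ChevField.gmap_wG sysD4, sig, TwistedLie.twistHom_wG sysD4 L graphD4a _ _ (fun x hx => by
      obtain ⟨y, hy, rfl⟩ := List.mem_map.1 hx
      exact hlt y hy), List.map_map, List.map_map]
    congr 1
    refine List.map_congr_left fun x _ => ?_
    simp [hφ, TwistedLie.D4.phi_apply, map_pow]
  exact hle hg

end CfsgLib.TwistedTorus
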